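import Cfsg.Agent.Lib.Helper1.O10.H0core
import Cfsg.Agent.Lib.Helper21.O10.U0
import Cfsg.Agent.Lib.Helper60.O10.U1a
import Cfsg.Agent.Lib.Helper89.O10.U1b

set_option autoImplicit false
set_option linter.unusedSectionVars false

/-! # O10 farm (helper21), piece H0 -/

namespace Cfsg.Agent.Lib.Helper1.O10

open Cfsg Cfsg.Geo Matrix Cfsg.Agent.Lib.Helper13.Asch Cfsg.Agent.Lib.Helper90.Sp
  Cfsg.Agent.Lib.Helper57.OE Cfsg.Agent.Lib.Helper21.O10
open scoped Kronecker MatrixGroups commutatorElement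

variable {ι : Type} [Fintype ι] [DecidableEq ι] {F : Type*} [Field F] {Q : (ι → F) → F}

/-- U1 (assembly) -/
theorem not_plus_of_similitude_field [Fintype F] (hQ : IsNondegenerateQuadraticForm Q)
    (hι : Fintype.card ι = 10) (K : Subalgebra F (Matrix ι ι F)) (hK : IsFieldSubalgebra 2 K)
    (hsim : ∀ k ∈ K, ∃ c : F, ∀ v, Q (k *ᵥ v) = c * Q v) : ¬ IsPlusTypeOn Q ⊤ := by
  intro hplus
  have h1 := Cfsg.Agent.Lib.Helper21.O10.card_singular_of_plus hQ (m := 5) (by norm_num)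
    (by rw [hι]) hplus
  exact Cfsg.Agent.Lib.Helper89.O10.arith_ten (Fintype.one_lt_card (α := F)) h1
    (Cfsg.Agent.Lib.Helper60.O10.dvd_card_singular hQ K hK hsim)

theorem not_plus_of_J [Fintype F] [Nonempty ι] (hQ : IsNondegenerateQuadraticForm Q)
    (hι : Fintype.card ι = 10) (J : Matrix ι ι F) (d μ : F) (hd : ¬ IsSquare d)
    (hJJ : J * J = d • 1) (hJQ : ∀ v, Q (J *ᵥ v) = μ * Q v)
    (hJf : ∀ v, QuadraticMap.polar Q v (J *ᵥ v) = 0) : ¬ IsPlusTypeOn Q ⊤ := by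
  obtain ⟨K, hK, hsim⟩ := h0_core hQ J d μ hd hJJ hJQ hJf
  exact not_plus_of_similitude_field hQ hι K hK hsim

end Cfsg.Agent.Lib.Helper1.O10
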