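import Cfsg.Agent.Lib.Helper21.O10.Defs
import Cfsg.Agent.Lib.Helper57.OE.Base
import Cfsg.Agent.Lib.Helper62.OE.T7

set_option autoImplicit false
set_option linter.unusedSectionVars false
set_option linter.unusedVariables false

/-! # O10 farm (helper21), piece H0, core: the field `F[J]` acts by similitudes -/

namespace Cfsg.Agent.Lib.Helper1.O10

open Cfsg Cfsg.Geo Matrix Cfsg.Agent.Lib.Helper13.Asch Cfsg.Agent.Lib.Helper90.Sp
  Cfsg.Agent.Lib.Helper57.OE Cfsg.Agent.Lib.Helper21.O10
open scoped Kronecker MatrixGroups commutatorElement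

variable {ι : Type} [Fintype ι] [DecidableEq ι] {F : Type*} [Field F] {Q : (ι → F) → F}

open Cfsg.Agent.Lib.Helper62.OE.T7 in
/-- `F[J]` is a field of degree two (adapted from helper62's `rfield_of_sqrtJ`) -/
theorem h0_field [Nonempty ι] (J : Matrix ι ι F) (d : F) (hd : ¬ IsSquare d)
    (hJJ : J * J = d • 1) : IsFieldSubalgebra 2 (KJ J d hJJ) := by
  refine ⟨?_, ?_, ?_⟩
  · rintro _ ⟨a, b, rfl⟩ _ ⟨a', b', rfl⟩
    rw [mul_formula hJJ, mul_formula hJJ]
    congr 2 <;> ring
  · rintro _ ⟨a, b, rfl⟩ hx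
    have hN : a * a - d * b * b ≠ 0 := by
      intro hN
      by_cases hb : b = 0
      · subst hb
        have ha : a = 0 := by
          have : a * a = 0 := by linear_combination hN
          exact mul_self_eq_zero.1 this
        apply hx
        rw [ha, zero_smul, zero_smul, add_zero]
      · apply hd
        refine ⟨a / b, ?_⟩
        field_simp
        linear_combination -hN
    refine ⟨_, ⟨(a * a - d * b * b)⁻¹ * a, -((a * a - d * b * b)⁻¹ * b), rfl⟩, ?_⟩
    rw [mul_formula hJJ]
    have e1 : a * ((a * a - d * b * b)⁻¹ * a) + d * b * -((a * a - d * b * b)⁻¹ * b) = 1 := by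
      calc _ = (a * a - d * b * b) * (a * a - d * b * b)⁻¹ := by ring
        _ = 1 := mul_inv_cancel₀ hN
    have e2 : a * -((a * a - d * b * b)⁻¹ * b) + b * ((a * a - d * b * b)⁻¹ * a) = 0 := by
      ring
    rw [e1, e2, one_smul, zero_smul, add_zero]
  · have hli : LinearIndependent F ![(1 : Matrix ι ι F), J] := by
      rw [LinearIndependent.pair_iff]
      intro s t hst
      exact indep hJJ hd s t hst
    have hspan : Subalgebra.toSubmodule (KJ J d hJJ) =
        Submodule.span F (Set.range ![(1 : Matrix ι ι F), J]) := by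
      ext x
      rw [Subalgebra.mem_toSubmodule, mem_KJ]
      simp only [Matrix.range_cons, Matrix.range_empty, Set.union_empty, Set.singleton_union]
      rw [Submodule.mem_span_pair]
      constructor
      · rintro ⟨a, b, rfl⟩
        exact ⟨a, b, rfl⟩
      · rintro ⟨a, b, rfl⟩
        exact ⟨a, b, rfl⟩
    have h1 := finrank_span_eq_card hli
    rw [← hspan] at h1
    simpa using h1

open Cfsg.Agent.Lib.Helper62.OE.T7 in
/-- H0, core: a field of degree two acting by similitudes -/
theorem h0_core [Nonempty ι] (hQ : IsNondegenerateQuadraticForm Q)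
    (J : Matrix ι ι F) (d μ : F) (hd : ¬ IsSquare d)
    (hJJ : J * J = d • 1) (hJQ : ∀ v, Q (J *ᵥ v) = μ * Q v)
    (hJf : ∀ v, QuadraticMap.polar Q v (J *ᵥ v) = 0) :
    ∃ K : Subalgebra F (Matrix ι ι F), IsFieldSubalgebra 2 K ∧
      ∀ k ∈ K, ∃ c : F, ∀ v, Q (k *ᵥ v) = c * Q v := by
  refine ⟨KJ J d hJJ, h0_field J d hd hJJ, ?_⟩
  rintro _ ⟨a, b, rfl⟩
  refine ⟨a ^ 2 + b ^ 2 * μ, fun v => ?_⟩
  rw [Matrix.add_mulVec, Matrix.smul_mulVec, Matrix.smul_mulVec, Matrix.one_mulVec, Q_add Q,
    hQ.smul, hQ.smul, hJQ, hQ.polar_bilinear.smul_left, hQ.polar_bilinear.smul_right, hJf]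
  ring

end Cfsg.Agent.Lib.Helper1.O10
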