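import Cfsg.Agent.Lib.Helper21.O10.Defs
import Cfsg.Agent.Lib.Helper57.OE.Base
import Cfsg.Agent.Lib.Helper8.OAsch.TW4

set_option autoImplicit false
set_option linter.unusedSectionVars false

/-! # O10 farm (helper21), piece H4: odd-dimensional non-degenerate subspaces are similar -/

namespace Cfsg.Agent.Lib.Helper1.O10

open Cfsg Cfsg.Geo Matrix Cfsg.Agent.Lib.Helper13.Asch Cfsg.Agent.Lib.Helper90.Sp
  Cfsg.Agent.Lib.Helper57.OE Cfsg.Agent.Lib.Helper21.O10
open scoped Kronecker MatrixGroups commutatorElement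

variable {ι : Type} [Fintype ι] [DecidableEq ι] {F : Type*} [Field F] {Q : (ι → F) → F}

/-- the polar form as a Mathlib bilinear form -/
noncomputable def h4B (hQ : IsNondegenerateQuadraticForm Q) : LinearMap.BilinForm F (ι → F) :=
  LinearMap.mk₂ F (QuadraticMap.polar Q) hQ.polar_bilinear.add_left hQ.polar_bilinear.smul_left
    hQ.polar_bilinear.add_right hQ.polar_bilinear.smul_right

theorem h4B_apply (hQ : IsNondegenerateQuadraticForm Q) (u v : ι → F) :
    h4B hQ u v = QuadraticMap.polar Q u v := rfl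

/-- the Gram matrix of a non-degenerate subspace is invertible -/
theorem h4_gram_det (hQ : IsNondegenerateQuadraticForm Q) (W : Submodule F (ι → F))
    (hW : IsNondegenerateOn (QuadraticMap.polar Q) W) {k : ℕ} (b : Module.Basis (Fin k) F W) :
    IsUnit (Matrix.of fun i j => QuadraticMap.polar Q (b i : ι → F) (b j : ι → F)).det := by
  rw [isUnit_iff_ne_zero]
  intro h0
  obtain ⟨x, hx0, hx⟩ := Matrix.exists_mulVec_eq_zero_iff.mpr h0
  set w : W := ∑ j, x j • b j with hw
  have hw0 : (w : ι → F) ≠ 0 := by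
    intro h
    have h' : w = 0 := Subtype.ext h
    apply hx0
    funext j
    have := (Fintype.linearIndependent_iff.mp b.linearIndependent) x h' j
    simpa using this
  obtain ⟨⟨y, hy, hyw⟩, -⟩ := hW w w.2 hw0
  apply hyw
  have hb : ∀ i, h4B hQ (b i : ι → F) (w : ι → F) = 0 := by
    intro i
    have e := congrFun hx i
    rw [hw]
    simp only [Submodule.coe_sum, Submodule.coe_smul, map_sum, map_smul, smul_eq_mul, h4B_apply]
    simpa [Matrix.mulVec, dotProduct, mul_comm] using e
  have hy' : y = ((∑ i, b.repr ⟨y, hy⟩ i • b i : W) : ι → F) := by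
    rw [b.sum_repr]
  rw [← h4B_apply hQ, hy']
  simp only [Submodule.coe_sum, Submodule.coe_smul, map_sum, map_smul, LinearMap.sum_apply,
    LinearMap.smul_apply, hb, smul_zero, Finset.sum_const_zero]

theorem exists_similarity [Fintype F] (h2 : (2 : F) ≠ 0) (hQ : IsNondegenerateQuadraticForm Q)
    (W W' : Submodule F (ι → F)) (hW : IsNondegenerateOn (QuadraticMap.polar Q) W)
    (hW' : IsNondegenerateOn (QuadraticMap.polar Q) W')
    (hdim : Module.finrank F W = Module.finrank F W') (hodd : Odd (Module.finrank F W)) :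
    ∃ (φ : (ι → F) →ₗ[F] (ι → F)) (δ : F), δ ≠ 0 ∧ ∀ w ∈ W, φ w ∈ W' ∧ Q (φ w) = δ * Q w := by
  classical
  let b : Module.Basis (Fin (Module.finrank F W)) F W := Module.finBasisOfFinrankEq F W rfl
  let b' : Module.Basis (Fin (Module.finrank F W)) F W' := Module.finBasisOfFinrankEq F W' hdim.symm
  set A : Matrix (Fin (Module.finrank F W)) (Fin (Module.finrank F W)) F :=
    Matrix.of fun i j => QuadraticMap.polar Q (b i : ι → F) (b j : ι → F) with hA
  set B : Matrix (Fin (Module.finrank F W)) (Fin (Module.finrank F W)) F :=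
    Matrix.of fun i j => QuadraticMap.polar Q (b' i : ι → F) (b' j : ι → F) with hB
  have hAs : Aᵀ = A := by
    ext i j
    simp only [hA, Matrix.transpose_apply, Matrix.of_apply]
    exact QuadraticMap.polar_comm _ _ _
  have hBs : Bᵀ = B := by
    ext i j
    simp only [hB, Matrix.transpose_apply, Matrix.of_apply]
    exact QuadraticMap.polar_comm _ _ _
  obtain ⟨g, c, hc, hg⟩ := Cfsg.Agent.Lib.Helper8.OAsch.sim_odd h2 hodd A B hAs hBs
    (h4_gram_det hQ W hW b) (h4_gram_det hQ W' hW' b')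
  let φ₀ : W →ₗ[F] W' := b.constr F (fun j => ∑ i, (g : Matrix _ _ F) i j • b' i)
  have hφ₀ : ∀ j, φ₀ (b j) = ∑ i, (g : Matrix _ _ F) i j • b' i := fun j => b.constr_basis F _ j
  let ψ : W →ₗ[F] (ι → F) := W'.subtype ∘ₗ φ₀
  have hψ : ∀ j, ψ (b j) = ∑ i, (g : Matrix _ _ F) i j • (b' i : ι → F) := by
    intro j
    show ((φ₀ (b j) : W') : ι → F) = _
    rw [hφ₀]
    simp only [Submodule.coe_sum, Submodule.coe_smul]
  have hform : (h4B hQ).comp ψ ψ = c • (h4B hQ).comp W.subtype W.subtype := by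
    apply LinearMap.BilinForm.ext_basis b
    intro i j
    have e := congrFun (congrFun hg i) j
    simp only [LinearMap.BilinForm.comp_apply, hψ, LinearMap.smul_apply, map_sum, map_smul,
      LinearMap.sum_apply, smul_eq_mul, h4B_apply, Submodule.subtype_apply]
    simp only [Matrix.mul_apply, Matrix.transpose_apply, Matrix.smul_apply, hA, hB, Matrix.of_apply,
      smul_eq_mul, Finset.sum_mul] at e
    rw [← e]
    simp only [Finset.mul_sum]
    refine Finset.sum_congr rfl fun a _ => Finset.sum_congr rfl fun a' _ => ?_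
    ring
  obtain ⟨π, hπ⟩ := LinearMap.exists_leftInverse_of_injective W.subtype (Submodule.ker_subtype W)
  refine ⟨ψ ∘ₗ π, c, hc, fun w hw => ?_⟩
  have hπw : π w = ⟨w, hw⟩ := LinearMap.congr_fun hπ ⟨w, hw⟩
  have hval : (ψ ∘ₗ π) w = ψ ⟨w, hw⟩ := by
    rw [LinearMap.comp_apply, hπw]
  rw [hval]
  refine ⟨(φ₀ ⟨w, hw⟩).2, ?_⟩
  have e := LinearMap.congr_fun (LinearMap.congr_fun hform ⟨w, hw⟩) ⟨w, hw⟩
  simp only [LinearMap.BilinForm.comp_apply, LinearMap.smul_apply, smul_eq_mul, h4B_apply,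
    Submodule.subtype_apply] at e
  rw [← two_mul_Q hQ, ← two_mul_Q hQ] at e
  apply mul_left_cancel₀ h2
  rw [e]
  ring

end Cfsg.Agent.Lib.Helper1.O10
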