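import Cfsg.Agent.Lib.Helper21.O10.Defs
import Cfsg.Agent.Lib.Helper13.PairWrap
import Cfsg.Agent.Lib.Helper55.Asch.DecCore

set_option autoImplicit false

/-! # O10 farm (helper21), piece H7 -/

namespace Cfsg.Agent.Lib.Helper1.O10

open Cfsg Cfsg.Geo Matrix Cfsg.Agent.Lib.Helper13.Asch Cfsg.Agent.Lib.Helper90.Sp
  Cfsg.Agent.Lib.Helper57.OE Cfsg.Agent.Lib.Helper21.O10
open scoped Kronecker MatrixGroups commutatorElement

variable {ι : Type} [Fintype ι] [DecidableEq ι] {F : Type*} [Field F] {Q : (ι → F) → F}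

theorem halves_of_two {k : ℕ} (D : Fin 2 → Submodule F (ι → F))
    (hD : IsNondegenerateMDecomposition (QuadraticMap.polar Q) k D) :
    IsCompl (D 0) (D 1) ∧ (∀ w ∈ D 0, ∀ w' ∈ D 1, QuadraticMap.polar Q w w' = 0) ∧
      2 * Module.finrank F (D 0) = Fintype.card ι := by
  refine ⟨Cfsg.Agent.Lib.Helper13.isCompl_of_isMDecomposition hD.decomp,
    hD.orthogonal 0 1 (by decide), ?_⟩
  rw [hD.decomp.finrank_eq 0]
  exact Cfsg.Agent.Lib.Helper55.Asch.card_of_decomp D hD.decomp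

end Cfsg.Agent.Lib.Helper1.O10
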